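import Cfsg.Agent.SPOR.J4.Seven

/-!
Elements of order 5.
-/

set_option autoImplicit false

namespace CL.J4

open Cfsg CL.K CL.Golay CL.MAut CL.Orb Subgroup

variable {G : Type*} [Group G] {z : G} {V : Subgroup G} {θ : Finset GolayPt → G} {χ : M24 →* G}

theorem exists_section {A B : Type*} [Group A] [Group B] (ψ : A →* B) (hs : Function.Surjective ψ)
    {K : Subgroup A} (h : ψ.ker.IsComplement' K) : ∃ s : B →* A, ∀ b, ψ (s b) = b := by
  have hb : Function.Bijective (ψ.comp K.subtype) := by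
    refine ⟨(injective_iff_map_eq_one _).2 fun x hx => Subtype.ext
      (disjoint_def.1 h.disjoint hx x.2), fun b => ?_⟩
    obtain ⟨a, rfl⟩ := hs b
    obtain ⟨⟨k, x⟩, rfl⟩ := h.2 a
    exact ⟨x, by rw [map_mul, show ψ k = 1 from k.2, one_mul]; rfl⟩
  exact ⟨K.subtype.comp (MulEquiv.ofBijective _ hb).symm.toMonoidHom,
    (MulEquiv.ofBijective _ hb).apply_symm_apply⟩

theorem sl3_equiv : Nonempty (Matrix.SpecialLinearGroup (Fin 3) (ZMod 2) ≃* G3) :=
  ⟨MulEquiv.ofBijective Matrix.SpecialLinearGroup.toGL ⟨Matrix.SpecialLinearGroup.toGL_injective,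
    fun g => ⟨⟨g, congrArg Units.val (Subsingleton.elim (Matrix.GeneralLinearGroup.det g) 1)⟩,
      Units.ext rfl⟩⟩⟩

/-- matrices from their rows -/
theorem forall_mat3 {p : Matrix (Fin 3) (Fin 3) (ZMod 2) → Prop}
    (h : ∀ a b c : F3, p (Matrix.of ![a, b, c])) (A) : p A := by
  have := h (A 0) (A 1) (A 2)
  rwa [show Matrix.of ![A 0, A 1, A 2] = A from funext fun i => by fin_cases i <;> rfl] at this

theorem G3_fix {A : G3} (h : A * A = 1) : ∃ v : F3, v ≠ 0 ∧ A • v = v :=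
  forall_mat3 (p := fun A => A * A = 1 → ∃ v : F3, v ≠ 0 ∧ A.mulVec v = v) (by decide +kernel) A
    (congrArg Units.val h)

theorem G3_fix_le {A : G3} (h : A ≠ 1) : {v : F3 | A • v = v}.ncard ≤ 4 := by
  rw [← Set.ncard_coe_finset (Finset.univ.filter fun v : F3 => A.1.mulVec v = v) |>.symm.trans
    (congrArg _ (Set.ext fun v => by simp; rfl))]
  exact forall_mat3 (p := fun A => A ≠ 1 → (Finset.univ.filter fun v : F3 => A.mulVec v = v).card ≤ 4)
    (by decide +kernel) A fun e => h (Units.ext e)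

theorem G3_invol : {A : G3 | A * A = 1 ∧ A ≠ 1}.ncard ≤ 21 := by
  refine (Set.ncard_le_ncard_of_injOn (fun A => (A.1 0, A.1 1, A.1 2)) (t := ↑(Finset.univ.filter
    fun p : F3 × F3 × F3 => Matrix.of ![p.1, p.2.1, p.2.2] * Matrix.of ![p.1, p.2.1, p.2.2] = 1 ∧
      Matrix.of ![p.1, p.2.1, p.2.2] ≠ 1)) (fun A hA => ?_) fun A _ B _ e => ?_).trans ?_
  · rw [Finset.coe_filter, Set.mem_ofPred_eq,
      show Matrix.of ![A.1 0, A.1 1, A.1 2] = A from funext fun i => by fin_cases i <;> rfl]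
    exact ⟨Finset.mem_univ _, congrArg Units.val hA.1, fun e => hA.2 (Units.ext e)⟩
  · simp only [Prod.mk.injEq] at e
    exact Units.ext (funext fun i => by fin_cases i; exacts [e.1, e.2.1, e.2.2])
  · rw [Set.ncard_coe_finset]; decide +kernel

/-- an element of order 5 fixing the four standard points -/
def P5 : ℕ := 968706071231490545334335149566003232

theorem MS.exists_t5 [Finite G] (h : MS z V θ χ) {u y : G} (hu : IsConj z u) (hy : orderOf y = 5)
    (e : y * u = u * y) : ∃ b, IsConj (θ (E.setOf D2)) b ∧ b * u = u * b ∧ b * y = y * b := by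
  have : Fact (Nat.Prime 5) := ⟨by decide⟩
  have hI : I M24 P5 := I.of_okM (by decide +kernel)
  have k : ∀ {n}, okN n = true → img24 P5 n = n →
      χ (toM P5) * θ (E.setOf n) = θ (E.setOf n) * χ (toM P5) := fun hn e => by
    rw [h.χ_mul_θ _ (okN_iff.1 hn).2, ← R.setOf_img (R_toM hI), e]
  have k1 := k (n := T4) (by decide +kernel) (by decide +kernel)
  rw [h.z_eq] at k1
  obtain ⟨g, rfl⟩ := isConj_iff.1 hu
  obtain ⟨c, j, -, -, hc⟩ := sylow_conj (K := centralizer {g * z * g⁻¹}) (p := 5) (by decide)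
    (by rw [← Inv.card_centralizer_eq_of_isConj hu, h.card_H]; decide)
    (a := ⟨_, mem_centralizer_singleton_iff.2 (comm_conj_iff.2 k1)⟩)
    (b := ⟨_, mem_centralizer_singleton_iff.2 e⟩) (by
      rw [orderOf_mk, Inv.orderOf_conj', orderOf_injective χ h.χ_inj, ← orderOf_coe]
      exact R.orderOf_eq_prime (R_toM hI) (by decide +kernel)) (by rw [orderOf_mk, hy])
  have hc' : (c : G) * y * (c : G)⁻¹ = (g * χ (toM P5) * g⁻¹) ^ j := congrArg Subtype.val hc
  have e1 : ∀ x : G, c * ((c : G)⁻¹ * x * (c : G)⁻¹⁻¹) * (c : G)⁻¹ = x := fun x => by group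
  refine ⟨(c : G)⁻¹ * (g * θ (E.setOf D2) * g⁻¹) * (c : G)⁻¹⁻¹,
    (isConj_conj_iff _).2 ((isConj_conj_iff _).2 (IsConj.refl _)), ?_, ?_⟩
  · rw [← comm_conj_iff (g := (c : G)), e1, mul_inv_eq_iff_eq_mul.2 (mem_centralizer_singleton_iff.1 c.2),
      comm_conj_iff]
    exact h.comm_V h.t_mem h.z_mem
  · rw [← comm_conj_iff (g := (c : G)), e1, hc']
    exact Commute.pow_right (comm_conj_iff.2
      (k (n := D2) (by decide +kernel) (by decide +kernel)).symm) j

variable {ι : F3 → G} {Z : Subgroup G} {μ : normalizer (Z : Set G) →* G3}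
  {φ : normalizer (Z : Set G) →* S5} {σ ν : normalizer (Z : Set G)} {f : S5 →* normalizer (Z : Set G)}

namespace Pen

variable (P : Pen z ι Z μ φ σ ν f)
include P

theorem ι_mem (v : F3) : ι v ∈ Z := (P.mem_Z _).2 ⟨v, rfl⟩

theorem ι_zero : ι 0 = 1 := mul_eq_left.1 (P.add 0 0).symm

theorem ι_comm (u v : F3) : ι u * ι v = ι v * ι u := by rw [← P.add, ← P.add, add_comm]

theorem ι_sq (v : F3) : ι v * ι v = 1 := by
  rw [← P.add, show v + v = 0 by revert v; decide, P.ι_zero]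

theorem comm_iff (g : normalizer (Z : Set G)) (v : F3) : g * ι v = ι v * g ↔ μ g • v = v := by
  rw [← mul_inv_eq_iff_eq_mul, P.act, P.inj.eq_iff]

theorem μZ (g : normalizer (Z : Set G)) (hg : (g : G) ∈ Z) : μ g = 1 := by
  obtain ⟨v, e⟩ := (P.mem_Z _).1 hg
  exact G3_ext fun w => by rw [one_smul, ← P.comm_iff, ← e, P.ι_comm]

theorem card_Z : Nat.card Z = 8 := by
  rw [← Nat.card_congr (Equiv.ofBijective (fun v => (⟨ι v, P.ι_mem v⟩ : Z))
    ⟨fun u v e => P.inj (congrArg Subtype.val e), fun ⟨q, hq⟩ =>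
      ((P.mem_Z q).1 hq).imp fun _ => Subtype.ext⟩)]
  simp

theorem ncard_ι : (ι '' {v | v ≠ 0}).ncard = 7 := by
  rw [Set.ncard_image_of_injective _ P.inj, ← Set.ncard_coe_finset (Finset.univ.filter
    fun v : F3 => v ≠ 0) |>.trans (by decide : _ = 7)]
  exact congrArg _ (Set.ext fun v => by simp)

variable [Finite G] {q : normalizer (Z : Set G)} (hq : orderOf q = 5) (μq : μ q = 1)
include hq μq

omit hq [Finite G] in
theorem q_comm (v : F3) : q * ι v = ι v * q := (P.comm_iff q v).2 (by rw [μq, one_smul])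

omit [Finite G] in
theorem φ_ord : orderOf (φ q) = 5 :=
  ((Nat.dvd_prime (p := 5) (by decide)).1 ((orderOf_map_dvd φ q).trans hq.dvd)).resolve_left fun e => by
    have := (φ.prod μ).ker.orderOf_dvd_natCard (x := q) (Prod.ext (orderOf_eq_one_iff.1 e) μq)
    rw [hq, P.ker] at this
    exact absurd this (by decide)

theorem lift5 (A : G3) : ∃ m ∈ φ.ker ⊓ centralizer {q}, μ m = A := by
  have : Fact (Nat.Prime 5) := ⟨by decide⟩
  obtain ⟨n, hn⟩ := P.surj (1, A)
  obtain ⟨m, h1, h2⟩ := exists_lift_comm (φ.prod μ) hq (by rw [P.ker]; decide) (n := n)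
    (by rw [hn, MonoidHom.prod_apply, μq]; simp)
  rw [hn] at h1
  exact ⟨m, ⟨congrArg Prod.fst h1, mem_centralizer_singleton_iff.2 h2⟩, congrArg Prod.snd h1⟩

variable (h : JS z V θ χ)
include h

theorem five_aux : Nat.card (centralizer ({q} : Set (normalizer (Z : Set G)))) = 6720 ∧
    (∀ x : normalizer (Z : Set G), x * q = q * x → φ x ∈ zpowers (φ q) ∧
      (φ x = 1 → μ x = 1 → (x : G) ∈ Z)) ∧
    ∀ v, v ≠ 0 → centralizer {ι v, (q : G)} ≤ normalizer (Z : Set G) := by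
  set C := centralizer ({q} : Set (normalizer (Z : Set G)))
  set J := φ.ker ⊓ C
  have hq' := (orderOf_coe q).trans hq
  have c1 := card_range_mul_ker (φ.comp C.subtype)
  have c2 := card_range_mul_ker (μ.comp J.subtype)
  rw [Orb.card_of_mem_iff (K := MonoidHom.ker _) (H := J) inf_le_right
    fun a => ⟨fun e => ⟨e, a.2⟩, fun e => e.1⟩, ← c2, (MonoidHom.range_eq_top (f := μ.comp _)).2 (fun A => by
      obtain ⟨m, hm, e⟩ := P.lift5 hq μq A; exact ⟨⟨m, hm⟩, e⟩), card_top, card_GL32,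
    Orb.card_of_mem_iff (K := MonoidHom.ker _) (H := J ⊓ μ.ker) inf_le_left
      fun a => ⟨fun e => ⟨a.2, e⟩, fun e => e.2⟩] at c1
  have l1 : zpowers (φ q) ≤ (φ.comp C.subtype).range :=
    zpowers_le.2 ⟨⟨q, mem_centralizer_singleton_iff.2 rfl⟩, rfl⟩
  have l2 : Z.subgroupOf _ ≤ J ⊓ μ.ker := fun x hx => by
    obtain ⟨v, e⟩ := (P.mem_Z _).1 hx
    exact ⟨⟨P.φZ x hx, mem_centralizer_singleton_iff.2 (Subtype.ext
      (show (x : G) * q = q * x from (show ι v = x from e) ▸ (P.q_comm μq v).symm))⟩, P.μZ x hx⟩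
  have d1 := card_le_of_le l1
  have d2 := card_le_of_le l2
  rw [Nat.card_zpowers, P.φ_ord hq μq] at d1
  have cZ := (Nat.card_congr (subgroupOfEquivOfLe (Z.le_normalizer)).toEquiv).trans P.card_Z
  rw [cZ] at d2
  have cC : Nat.card C = Nat.card (normalizer (Z : Set G) ⊓ centralizer {(q : G)} : Subgroup G) :=
    Orb.card_of_mem_iff inf_le_left fun a => by
      simp only [C, mem_inf, mem_centralizer_singleton_iff, Subtype.ext_iff, a.2, true_and]; rfl
  have key : ∀ v, v ≠ 0 → Nat.card C ≤ 7 * Nat.card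
      (normalizer (Z : Set G) ⊓ centralizer {(q : G)} ⊓ centralizer {ι v} : Subgroup G) := fun v hv => by
    rw [cC, card_eq_orbit_mul _ (ι v), ← P.ncard_ι]
    refine Nat.mul_le_mul_right _ (Set.ncard_le_ncard ?_)
    rintro _ ⟨n, hn, rfl⟩
    exact ⟨_, (smul_ne_zero_iff_ne _).2 hv, (P.act ⟨n, hn.1⟩ v).symm⟩
  have l3 : ∀ v, normalizer (Z : Set G) ⊓ centralizer {(q : G)} ⊓ centralizer {ι v} ≤
      centralizer {ι v, (q : G)} := fun v x hx =>
    mem_C2.2 ⟨mem_centralizer_singleton_iff.1 hx.2, mem_centralizer_singleton_iff.1 hx.1.2⟩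
  have c3 := fun v hv => (h.z_five (P.cj v hv) hq' (P.q_comm μq v)).1
  have d3 := (key ![1, 0, 0] (by decide)).trans (Nat.mul_le_mul_left _
    ((card_le_of_le (l3 _)).trans_eq (c3 _ (by decide))))
  have d4 : 6720 ≤ Nat.card C := c1 ▸ Nat.mul_le_mul d1 (Nat.mul_le_mul_left 168 d2)
  refine ⟨by omega, fun x hx => ⟨?_, fun e1 e2 => ?_⟩, fun v hv => ?_⟩
  · rw [eq_of_le_of_card_ge l1 (by rw [Nat.card_zpowers, P.φ_ord hq μq]; nlinarith)]
    exact ⟨⟨x, mem_centralizer_singleton_iff.2 hx⟩, rfl⟩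
  · rw [← mem_subgroupOf, eq_of_le_of_card_ge l2 (by rw [cZ]; nlinarith)]
    exact ⟨⟨e1, mem_centralizer_singleton_iff.2 hx⟩, e2⟩
  · have := key v hv
    rw [← eq_of_le_of_card_ge (l3 v) (by rw [c3 v hv]; omega)]
    exact inf_le_left.trans inf_le_left

theorem z_in {x : normalizer (Z : Set G)} (hx : x * q = q * x) (hz : IsConj z x) : (x : G) ∈ Z := by
  obtain ⟨v, hv, e⟩ := G3_fix (A := μ x) (by
    rw [← map_mul, show x * x = 1 from Subtype.ext
      (sq_of_isConj hz (Inv.mul_self_of_orderOf_two h.orderOf_z)), map_one])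
  have := Set.eq_of_subset_of_ncard_le (s := ι '' {v | v ≠ 0})
    (t := {x | x ∈ centralizer {ι v, (q : G)} ∧ IsConj z x}) (by
      rintro _ ⟨w, hw, rfl⟩
      exact ⟨mem_C2.2 ⟨P.ι_comm w v, (P.q_comm μq w).symm⟩, P.cj w hw⟩)
    (by rw [P.ncard_ι, (h.z_five (P.cj v hv) ((orderOf_coe q).trans hq) (P.q_comm μq v)).2])
  obtain ⟨w, -, e'⟩ : (x : G) ∈ ι '' {v | v ≠ 0} :=
    this ▸ ⟨mem_C2.2 ⟨(P.comm_iff x v).2 e, congrArg Subtype.val hx⟩, hz⟩
  exact e' ▸ P.ι_mem w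

theorem φ_invol {x : normalizer (Z : Set G)} (hx : x * q = q * x) (e : x * x = 1) : φ x = 1 := by
  have := (zpowers (φ q)).orderOf_dvd_natCard (((P.five_aux hq μq h).2.1 x hx).1)
  rw [Nat.card_zpowers, P.φ_ord hq μq] at this
  exact orderOf_eq_one_iff.1 (Nat.eq_one_of_dvd_coprimes (by decide : Nat.Coprime 2 5)
    (orderOf_dvd_of_pow_eq_one (by rw [sq, ← map_mul, e, map_one])) this)

theorem t_cent {u : normalizer (Z : Set G)} (hu : u * q = q * u) (ht : IsConj (θ (E.setOf D2)) u) :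
    centralizer {(u : G), (q : G)} ≤ normalizer (Z : Set G) := by
  obtain ⟨a1, a2, -⟩ := P.five_aux hq μq h
  have sq : ∀ x : normalizer (Z : Set G), IsConj (θ (E.setOf D2)) x → x * x = 1 := fun x hx =>
    Subtype.ext (sq_of_isConj hx (h.θ_sq even_D2))
  have c1 := card_eq_orbit_mul (centralizer {q}) u
  have c2 := ncard_le_of_fibres (Z := {x | x * q = q * x ∧ IsConj (θ (E.setOf D2)) (x : G)})
    (S := {A : G3 | A * A = 1 ∧ A ≠ 1}) (Set.toFinite _) (Set.toFinite _) μ (n := 4)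
    (fun x hx => ⟨by rw [← map_mul, sq x hx.2, map_one], fun e => ?_⟩) fun A hA => ?_
  · have c3 : {v | ∃ n ∈ centralizer {q}, n * u * n⁻¹ = v}.ncard ≤ 21 * 4 := by
      refine (Set.ncard_le_ncard ?_).trans (c2.trans (Nat.mul_le_mul_right _ G3_invol))
      rintro _ ⟨n, hn, rfl⟩
      exact ⟨mem_centralizer_singleton_iff.1 (mul_mem (mul_mem hn (mem_centralizer_singleton_iff.2 hu))
        (inv_mem hn)), (isConj_conj_iff (n : G)).2 ht⟩
    have l : (centralizer {q} ⊓ centralizer {u}).map (normalizer (Z : Set G)).subtype ≤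
        centralizer {(u : G), (q : G)} := by
      rintro _ ⟨x, hx, rfl⟩
      exact mem_C2.2 ⟨congrArg Subtype.val (mem_centralizer_singleton_iff.1 hx.2),
        congrArg Subtype.val (mem_centralizer_singleton_iff.1 hx.1)⟩
    rw [← eq_of_le_of_card_ge l ((h.t_five ht ((orderOf_coe q).trans hq)
      (congrArg Subtype.val hu.symm)).trans (by
        rw [card_map_of_injective Subtype.val_injective]; nlinarith))]
    exact map_subtype_le _
  · obtain ⟨v, e'⟩ := (P.mem_Z _).1 ((a2 x hx.1).2 (P.φ_invol hq μq h hx.1 (sq x hx.2)) e)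
    by_cases hv : v = 0
    · rw [hv, P.ι_zero] at e'
      exact h.θ_ne_one (Or.inl (by decide +kernel)) (isConj_one_left.1 (e' ▸ hx.2))
    · exact h.not_conj ((e' ▸ P.cj v hv).trans hx.2.symm)
  · rcases Set.eq_empty_or_nonempty {c | c ∈ {x : normalizer (Z : Set G) | x * q = q * x ∧
      IsConj (θ (E.setOf D2)) (x : G)} ∧ μ c = A} with e | ⟨y, hy, rfl⟩
    · rw [e, Set.ncard_empty]; exact Nat.zero_le _
    refine le_trans (Set.ncard_le_ncard (t := (fun v => y * ⟨ι v, Z.le_normalizer (P.ι_mem v)⟩) ''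
      {v : F3 | μ y • v = v}) fun x hx => ?_) ((Set.ncard_image_le (Set.toFinite _)).trans (G3_fix_le hA.2))
    obtain ⟨v, e⟩ := (P.mem_Z _).1 ((a2 (y⁻¹ * x) (Commute.mul_left (Commute.inv_left hy.1) hx.1.1)).2
      (by rw [map_mul, map_inv, P.φ_invol hq μq h hy.1 (sq y hy.2),
        P.φ_invol hq μq h hx.1.1 (sq x hx.1.2), inv_one, one_mul])
      (by rw [map_mul, map_inv, hx.2, inv_mul_cancel]))
    have e1 : (x : G) = y * ι v := by rw [e]; simp
    refine ⟨v, (P.comm_iff y v).1 ?_, Subtype.ext e1.symm⟩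
    have k1 : (y : G) * y = 1 := congrArg Subtype.val (sq y hy.2)
    have k2 : (x : G) * x = 1 := congrArg Subtype.val (sq x hx.1.2)
    rw [e1] at k2
    rw [eq_inv_of_mul_eq_one_left k2, mul_inv_rev, ← eq_inv_of_mul_eq_one_left k1,
      ← eq_inv_of_mul_eq_one_left (P.ι_sq v)]

theorem norm5_le : normalizer (zpowers (q : G) : Set G) ≤ normalizer (Z : Set G) := fun n hn => by
  have hq' := (orderOf_coe q).trans hq
  obtain ⟨-, -, a3⟩ := P.five_aux hq μq h
  have h0 : (![1, 0, 0] : F3) ≠ 0 := by decide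
  obtain ⟨b, b1, b2, b3⟩ := h.exists_t5 (P.cj _ h0) hq' (P.q_comm μq _)
  have oz : ∀ {x}, IsConj z x → orderOf x = 2 := fun e => by
    obtain ⟨g, rfl⟩ := isConj_iff.1 e; rw [Inv.orderOf_conj', h.orderOf_z]
  refine mem_normalizer_fintype fun x hx => ?_
  obtain ⟨v, rfl⟩ := (P.mem_Z x).1 hx
  by_cases hv : v = 0
  · rw [hv, P.ι_zero, mul_one, mul_inv_cancel]; exact one_mem _
  have hz := (isConj_conj_iff n).2 (P.cj v hv)
  have hc : n * ι v * n⁻¹ ∈ centralizer {(q : G)} := by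
    obtain ⟨k, -, e⟩ := exists_pow_of_norm (inv_mem hn)
    rw [mem_centralizer_singleton_iff, ← comm_conj_iff (g := n⁻¹), e,
      show n⁻¹ * (n * ι v * n⁻¹) * n⁻¹⁻¹ = ι v by group]
    exact Commute.pow_right (P.q_comm μq v).symm k
  have := invol_mem (J := normalizer (Z : Set G) ⊓ centralizer {(q : G)}) inf_le_right
    ⟨Z.le_normalizer (P.ι_mem _), mem_centralizer_singleton_iff.2 (P.q_comm μq _).symm⟩
    ⟨a3 _ h0 (mem_C2.2 ⟨b2, b3⟩), mem_centralizer_singleton_iff.2 b3⟩ (oz (P.cj _ h0))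
    (by obtain ⟨g, rfl⟩ := isConj_iff.1 b1; rw [Inv.orderOf_conj', h.orderOf_t])
    (fun e => h.not_conj (((P.cj _ h0).trans e).trans b1.symm)) (fun u hu o x hx e => ⟨?_, hx⟩) hc (oz hz)
  · exact P.z_in hq μq h (x := ⟨_, this.1⟩) (Subtype.ext (mem_centralizer_singleton_iff.1 hc)) hz
  have k : (⟨u, hu.1⟩ : normalizer (Z : Set G)) * q = q * ⟨u, hu.1⟩ :=
    Subtype.ext (mem_centralizer_singleton_iff.1 hu.2)
  have m := mem_C2.2 ⟨e, mem_centralizer_singleton_iff.1 hx⟩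
  rcases h.two u o with e' | e'
  · obtain ⟨w, rfl⟩ := (P.mem_Z u).1 (P.z_in hq μq h k e')
    exact a3 w (by rintro rfl; rw [P.ι_zero, orderOf_one] at o; exact absurd o (by decide)) m
  · exact P.t_cent hq μq h k e' m

theorem cent5_le : centralizer {(q : G)} ≤ normalizer (Z : Set G) :=
  (cent_zpowers (q : G) ▸ centralizer_le_normalizer _).trans (P.norm5_le hq μq h)

theorem card_cent5 : Nat.card (centralizer {(q : G)}) = 6720 :=
  (Orb.card_of_mem_iff (P.cent5_le hq μq h) fun a => by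
    simp only [mem_centralizer_singleton_iff, Subtype.ext_iff]; rfl).symm.trans
      (P.five_aux hq μq h).1

theorem nosplit (s : G3 →* normalizer (Z : Set G)) (h1 : ∀ A, μ (s A) = A)
    (h2 : ∀ A, s A * q = q * s A) (h3 : ∀ A, φ (s A) = 1) : False := by
  let A : G3 := ⟨!![1, 0, 1; 0, 1, 0; 0, 0, 1], !![1, 0, 1; 0, 1, 0; 0, 0, 1], by decide, by decide⟩
  have hA : A ≠ 1 := by decide
  have o : orderOf (s A : G) = 2 := by
    rw [orderOf_coe, orderOf_injective s (Function.LeftInverse.injective h1)]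
    exact orderOf_eq_prime (by decide) hA
  have ht := (h.two _ o).resolve_left fun e => hA (h1 A ▸ P.μZ _ (P.z_in hq μq h (h2 A) e))
  have c := h.t_five ht ((orderOf_coe q).trans hq) (congrArg Subtype.val (h2 A).symm)
  let U : F3 → G3 := fun w => ⟨!![1, w 0, w 1; 0, 1, w 2; 0, 0, 1],
    !![1, w 0, w 1 + w 0 * w 2; 0, 1, w 2; 0, 0, 1], by revert w; decide, by revert w; decide⟩
  let ι' : Fin 2 → ZMod 2 → F3 := fun a b => ![a, b, 0]
  let F : (Fin 2 × ZMod 2) × F3 × Fin 5 → normalizer (Z : Set G) := fun p =>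
    ⟨ι (ι' p.1.1 p.1.2), Z.le_normalizer (P.ι_mem _)⟩ * s (U p.2.1) * q ^ (p.2.2 : ℕ)
  have := Nat.card_le_card_of_injective (β := centralizer {(s A : G), (q : G)})
    (fun p => ⟨F p, mem_C2.2 ⟨congrArg Subtype.val (Commute.mul_left (Commute.mul_left
      (Subtype.ext ((P.comm_iff _ _).2 (by
        rw [h1]; exact (by decide : ∀ a b, A • ι' a b = ι' a b) _ _)).symm)
      (Commute.map ((by decide : ∀ w, U w * A = A * U w) _) s)) (Commute.pow_left (h2 A).symm _)),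
      congrArg Subtype.val (Commute.mul_left (Commute.mul_left (Subtype.ext (P.q_comm μq _).symm)
        (h2 _)) (Commute.pow_self q _))⟩⟩) fun p p' e => ?_
  · exact absurd (this.trans c) (by simp)
  have e1 : F p = F p' := Subtype.ext (Subtype.mk.inj e)
  have e2 := congrArg φ e1
  have e3 := congrArg μ e1
  simp only [F, map_mul, map_pow, h1, h3, μq, P.φZ ⟨_, _⟩ (P.ι_mem _), P.μZ ⟨_, _⟩ (P.ι_mem _), one_mul,
    one_pow, mul_one] at e2 e3
  have k1 := Fin.ext (pow_injOn_Iio_orderOf (p.2.2.2.trans_eq (P.φ_ord hq μq).symm)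
    (p'.2.2.2.trans_eq (P.φ_ord hq μq).symm) e2)
  have k2 := (by decide : ∀ w w', U w = U w' → w = w') _ _ e3
  simp only [F, k1, k2, mul_left_inj, Subtype.mk.injEq, P.inj.eq_iff] at e1
  exact Prod.ext ((by decide : ∀ p p' : Fin 2 × ZMod 2, ι' p.1 p.2 = ι' p'.1 p'.2 → p = p') _ _ e1)
    (Prod.ext k2 k1)

theorem struct5 : ∃ J : Subgroup G, IsInternalDirectProduct (zpowers (q : G)) J (centralizer {(q : G)}) ∧
    ∃ (E : Subgroup J) (_ : E.Normal), IsElementaryAbelian 2 E ∧ Nat.card E = 8 ∧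
      Nonempty (J ⧸ E ≃* Matrix.SpecialLinearGroup (Fin 3) (ZMod 2)) ∧
        ∀ K : Subgroup J, ¬ E.IsComplement' K := by
  obtain ⟨-, a2, -⟩ := P.five_aux hq μq h
  let J := (φ.ker ⊓ centralizer {q}).map (normalizer (Z : Set G)).subtype
  have mJ : ∀ x : normalizer (Z : Set G), (x : G) ∈ J ↔ φ x = 1 ∧ x * q = q * x := fun x =>
    (mem_map_iff_mem Subtype.val_injective).trans (and_congr Iff.rfl mem_centralizer_singleton_iff)
  have k1 : zpowers (q : G) ≤ centralizer {(q : G)} :=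
    zpowers_le.2 (mem_centralizer_singleton_iff.2 rfl)
  have k2 : J ≤ centralizer {(q : G)} := by
    rintro _ ⟨x, hx, rfl⟩
    exact mem_centralizer_singleton_iff.2 (congrArg Subtype.val (mem_centralizer_singleton_iff.1 hx.2))
  let ψ : J →* G3 := μ.comp (inclusion (map_subtype_le _))
  have ψs : Function.Surjective ψ := fun A => by
    obtain ⟨m, hm, e⟩ := P.lift5 hq μq A
    exact ⟨⟨m, m, hm, rfl⟩, e⟩
  have mk : ∀ x : J, x ∈ ψ.ker ↔ (x : G) ∈ Z := fun x =>
    ⟨fun e => (a2 ⟨x, map_subtype_le _ x.2⟩ ((mJ _).1 x.2).2).2 ((mJ _).1 x.2).1 e,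
      P.μZ ⟨x, map_subtype_le _ x.2⟩⟩
  obtain ⟨e3⟩ := sl3_equiv
  refine ⟨J, ⟨k1, k2, ?_, eq_bot_iff.2 ?_, le_antisymm (sup_le k1 k2) fun x hx => ?_⟩, ψ.ker,
    inferInstance, ⟨⟨⟨fun a b => Subtype.ext (Subtype.ext ?_)⟩⟩, fun a ha => Subtype.ext ?_⟩,
    (Orb.card_of_mem_iff (fun x hx => ?_) mk).trans P.card_Z,
    ⟨(QuotientGroup.quotientKerEquivOfSurjective ψ ψs).trans e3.symm⟩, fun K hK => ?_⟩
  · rintro _ ⟨k, rfl⟩ b hb
    exact Commute.zpow_left (mem_centralizer_singleton_iff.1 (k2 hb)).symm k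
  · rintro _ ⟨⟨k, rfl⟩, hk⟩
    have := ((mJ (q ^ k)).1 hk).1
    rw [map_zpow, ← orderOf_dvd_iff_zpow_eq_one, P.φ_ord hq μq, ← hq, orderOf_dvd_iff_zpow_eq_one] at this
    exact congrArg Subtype.val this
  · lift x to normalizer (Z : Set G) using P.cent5_le hq μq h hx
    have hx' : x * q = q * x := Subtype.ext (mem_centralizer_singleton_iff.1 hx)
    obtain ⟨k, e⟩ := (a2 _ hx').1
    have := (mJ ((q ^ k)⁻¹ * x)).2 ⟨by rw [map_mul, map_inv, map_zpow, ← e, inv_mul_cancel],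
      Commute.mul_left (Commute.zpow_self q k).inv_left hx'⟩
    simpa using mul_mem_sup (zpow_mem_zpowers (q : G) k) this
  · obtain ⟨u, e⟩ := (P.mem_Z _).1 ((mk _).1 a.2)
    obtain ⟨v, e'⟩ := (P.mem_Z _).1 ((mk _).1 b.2)
    change ((a : J) : G) * (b : J) = ((b : J) : G) * (a : J)
    rw [← e, ← e', P.ι_comm]
  · obtain ⟨u, e⟩ := (P.mem_Z _).1 ((mk _).1 ha)
    exact (sq _).trans (e ▸ P.ι_sq u)
  · obtain ⟨v, rfl⟩ := (P.mem_Z _).1 hx
    exact (mJ ⟨_, Z.le_normalizer hx⟩).2 ⟨P.φZ _ hx, Subtype.ext (P.q_comm μq v).symm⟩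
  · obtain ⟨s, hs⟩ := exists_section ψ ψs hK
    exact P.nosplit hq μq h ((inclusion (map_subtype_le _)).comp s) hs
      (fun A => ((mJ _).1 (s A).2).2) fun A => ((mJ _).1 (s A).2).1

end Pen

theorem orderOf_rot : orderOf (finRotate 5) = 5 :=
  haveI : Fact (Nat.Prime 5) := ⟨by decide⟩
  orderOf_eq_prime (by decide) (by decide)

theorem JS.exists_pen5 [Finite G] (h : JS z V θ χ) {Q : Subgroup G} (hQ : Nat.card Q = 5) :
    ∃ ι Z μ φ σ ν f, Pen z ι Z μ φ σ ν f ∧ Q = zpowers (f (finRotate 5) : G) := by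
  obtain ⟨ι, Z, μ, φ, σ, ν, f, P⟩ := h.exists_pen
  obtain ⟨k, rfl⟩ := exists_zpowers (by decide) (by rw [h.card_G]; decide) hQ
    ((P.f_ord _).trans orderOf_rot)
  obtain ⟨ι, Z, μ, φ, σ, ν, f, P', -, e⟩ := P.conj k
  exact ⟨_, _, _, _, _, _, _, P', by rw [e]⟩

/-- squares the five-cycle -/
def dbl : S5 := ⟨![0, 2, 4, 1, 3], ![0, 3, 1, 4, 2], by decide, by decide⟩

theorem dbl_rot : dbl * finRotate 5 * dbl⁻¹ = finRotate 5 ^ 2 := by decide

theorem exists_frob {f : S5 →* G} (hf : Function.Injective f) :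
    ∃ R : Subgroup G, zpowers (f (finRotate 5)) ≤ R ∧ R ≤ normalizer (zpowers (f (finRotate 5)) : Set G) ∧
      Nat.card R = 20 ∧ R ⊓ centralizer {f (finRotate 5)} = zpowers (f (finRotate 5)) := by
  have c : Nat.card (centralizer {finRotate 5}) = 5 := by rw [card_cent_eq]; decide +kernel
  have e : zpowers (finRotate 5) = centralizer {finRotate 5} := eq_of_le_of_card_ge
    (zpowers_le.2 (mem_centralizer_singleton_iff.2 rfl)) (by rw [c, Nat.card_zpowers, orderOf_rot])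
  have k : zpowers (f (finRotate 5)) ≤ (normalizer (zpowers (finRotate 5) : Set S5)).map f :=
    MonoidHom.map_zpowers f _ ▸ map_mono le_normalizer
  refine ⟨_, k, MonoidHom.map_zpowers f _ ▸ le_normalizer_map f, by
    rw [card_map_of_injective hf, card_norm_five orderOf_rot dbl_rot, c], le_antisymm ?_
      (le_inf k (zpowers_le.2 (mem_centralizer_singleton_iff.2 rfl)))⟩
  rintro _ ⟨⟨π, -, rfl⟩, h⟩
  rw [← MonoidHom.map_zpowers, e]
  exact ⟨π, mem_centralizer_singleton_iff.2 (hf (by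
    rw [map_mul, map_mul]; exact mem_centralizer_singleton_iff.1 h)), rfl⟩

end CL.J4
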