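import Mathlib

/-!
A checker that excludes orders of simple groups by comparing principal blocks of defect one:
definitions and the combinatorial part of the soundness proof.
-/

set_option autoImplicit false

namespace CL.J4.Mx

/-- evaluate a number first -/
def fN {β : Type} (n : ℕ) (k : ℕ → β) : β := Nat.casesOn n (k 0) fun m => k (Nat.succ m)

@[simp] theorem fN_eq {β : Type} (n : ℕ) (k : ℕ → β) : fN n k = k n := by cases n <;> rfl

/-- evaluate an integer first -/
def fI {β : Type} (x : ℤ) (k : ℤ → β) : β :=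
  Int.casesOn x (fun n => fN n fun m => k (Int.ofNat m)) fun n => fN n fun m => k (Int.negSucc m)

@[simp] theorem fI_eq {β : Type} (x : ℤ) (k : ℤ → β) : fI x k = k x := by
  cases x <;> simp [fI]

/-- evaluate a list first -/
noncomputable def fL {α β : Type} (f : α → (α → β) → β) (l : List α) : (List α → β) → β :=
  List.rec (fun k => k []) (fun x _ ih k => f x fun y => ih fun r => k (y :: r)) l

theorem fL_eq {α β : Type} {f : α → (α → β) → β} (hf : ∀ x k, f x k = k x) (l : List α)
    (k : List α → β) : fL f l k = k l := by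
  induction l generalizing k with
  | nil => rfl
  | cons x l ih => exact (hf x _).trans (ih _)

/-- evaluate the spine of a list -/
noncomputable def fS {α β : Type} (l : List α) (k : List α → β) : β := fL (fun x k => k x) l k

@[simp] theorem fS_eq {α β : Type} (l : List α) (k : List α → β) : fS l k = k l :=
  fL_eq (fun _ _ => rfl) l k

/-- evaluate a list of integers -/
noncomputable def fZ {β : Type} (l : List ℤ) (k : List ℤ → β) : β := fL fI l k

@[simp] theorem fZ_eq {β : Type} (l : List ℤ) (k : List ℤ → β) : fZ l k = k l := fL_eq fI_eq l k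

/-- degrees with weights -/
abbrev WL : Type := List (ℕ × ℤ)

/-- evaluate a list of weighted degrees -/
noncomputable def fW {β : Type} (l : WL) (k : WL → β) : β :=
  fL (fun x k => fN x.1 fun a => fI x.2 fun b => k (a, b)) l k

@[simp] theorem fW_eq {β : Type} (l : WL) (k : WL → β) : fW l k = k l :=
  fL_eq (fun _ _ => by simp) l k

/-- concatenation -/
noncomputable def app {α : Type} (a b : List α) : List α := List.rec b (fun x _ ih => x :: ih) a

@[simp] theorem app_eq {α : Type} (a b : List α) : app a b = a ++ b := by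
  induction a with
  | nil => rfl
  | cons x a ih => exact congrArg (x :: ·) ih

/-- `flatMap` -/
noncomputable def fm {α β : Type} (f : α → List β) (l : List α) : List β :=
  List.rec [] (fun x _ ih => app (f x) ih) l

@[simp] theorem fm_eq {α β : Type} (f : α → List β) (l : List α) : fm f l = l.flatMap f := by
  induction l with
  | nil => rfl
  | cons x l ih => exact (app_eq _ _).trans (by rw [List.flatMap_cons, ← ih]; rfl)

/-- `all` -/
noncomputable def al {α : Type} (f : α → Bool) (l : List α) : Bool :=
  List.rec true (fun x _ ih => f x && ih) l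

@[simp] theorem al_eq {α : Type} (f : α → Bool) (l : List α) : al f l = l.all f := by
  induction l with
  | nil => rfl
  | cons x l ih => rw [List.all_cons, ← ih]; rfl

/-- `any` -/
noncomputable def an {α : Type} (f : α → Bool) (l : List α) : Bool :=
  List.rec false (fun x _ ih => f x || ih) l

@[simp] theorem an_eq {α : Type} (f : α → Bool) (l : List α) : an f l = l.any f := by
  induction l with
  | nil => rfl
  | cons x l ih => rw [List.any_cons, ← ih]; rfl

/-- `[x]` or `[]` -/
def ite1 {α : Type} (b : Bool) (x : α) : List α := bif b then [x] else []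

@[simp] theorem mem_ite1 {α : Type} {b : Bool} {x y : α} : y ∈ ite1 b x ↔ b = true ∧ y = x := by
  cases b <;> simp [ite1]

/-- runs through the divisors -/
noncomputable def tr {β : Type} (e : β) (op : β → β → β) (ok : ℕ → Bool) (leaf : ℕ → β)
    (L : List ℕ) : ℕ → β :=
  List.rec leaf (fun p _ ih => Nat.rec (fun _ => e)
    (fun _ pw a => op (ih a) (fN (a * p) fun b => bif ok b then pw b else e)) 22) L

theorem tr_of {β : Type} {e : β} {op : β → β → β} {ok : ℕ → Bool} {leaf : ℕ → β} {P : β → Prop}
    (h1 : ∀ x y, P x → P (op x y)) (h2 : ∀ x y, P y → P (op x y)) {L : List ℕ}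
    (hL : ∀ p ∈ L, p.Prime) {a d : ℕ} (hd : d ∣ (L.map (· ^ 21)).prod)
    (hok : ∀ b, b ∣ a * d → ok b = true) (h : P (leaf (a * d))) : P (tr e op ok leaf L a) := by
  induction L generalizing a d with
  | nil =>
    obtain rfl : d = 1 := by simpa using hd
    simpa [tr] using h
  | cons p L ih =>
    rw [List.map_cons, List.prod_cons] at hd
    obtain ⟨d1, d2, e1, e2, rfl⟩ := exists_dvd_and_dvd_of_dvd_mul hd
    obtain ⟨i, hi, rfl⟩ := (Nat.dvd_prime_pow (hL p (by simp))).1 e1
    have key : ∀ n i a, i < n → (∀ b, b ∣ a * (p ^ i * d2) → ok b = true) →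
        P (leaf (a * (p ^ i * d2))) → P (Nat.rec (motive := fun _ => ℕ → β) (fun _ => e)
          (fun _ pw a => op (tr e op ok leaf L a)
            (fN (a * p) fun b => bif ok b then pw b else e)) n a) := by
      intro n
      induction n with
      | zero => intro i a hi; omega
      | succ n ihn =>
        intro i a hi hok h
        rcases i with _ | i
        · exact h1 _ _ (ih (fun q hq => hL q (by simp [hq])) e2 (by simpa using hok)
            (by simpa using h))
        · refine h2 _ _ ?_
          have e : a * (p ^ (i + 1) * d2) = a * p * (p ^ i * d2) := by ring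
          rw [fN_eq, hok _ (e ▸ dvd_mul_right _ _), cond_true]
          exact ihn i _ (by omega) (e ▸ hok) (e ▸ h)
    exact key 22 i a (by omega) hok h

/-- the primes -/
def PR : List ℕ := [43, 37, 31, 29, 23, 11, 7, 5, 3, 2]

/-- the order -/
def oG : ℕ := 86775571046077562880

theorem tr_PR {β : Type} {e : β} {op : β → β → β} {ok : ℕ → Bool} {leaf : ℕ → β} {P : β → Prop}
    (h1 : ∀ x y, P x → P (op x y)) (h2 : ∀ x y, P y → P (op x y)) {d : ℕ} (hd : d ∣ oG)
    (hok : ∀ b, b ∣ d → ok b = true) (h : P (leaf d)) : P (tr e op ok leaf PR 1) :=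
  tr_of h1 h2 (by decide) (hd.trans (by decide +kernel)) (by simpa using hok) (by simpa using h)

/-- some divisor of `n` has the property -/
noncomputable def anD (n : ℕ) (f : ℕ → Bool) : Bool :=
  fN n fun n => tr false or (fun b => Nat.beq (n % b) 0) f PR 1

theorem anD_of {n d : ℕ} {f : ℕ → Bool} (hd : d ∣ n) (hG : d ∣ oG) (h : f d = true) :
    anD n f = true := by
  rw [anD, fN_eq]
  exact tr_PR (P := (· = true)) (by simp +contextual) (by simp +contextual) hG
    (fun b hb => by simp [Nat.mod_eq_zero_of_dvd (hb.trans hd)]) h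

/-- concatenation over the divisors of `n` -/
noncomputable def fmD {α : Type} (n : ℕ) (f : ℕ → List α) : List α :=
  tr [] app (fun b => Nat.beq (n % b) 0) f PR 1

theorem mem_fmD {α : Type} {n d : ℕ} {f : ℕ → List α} {x : α} (hd : d ∣ n) (hG : d ∣ oG)
    (h : x ∈ f d) : x ∈ fmD n f :=
  tr_PR (P := (x ∈ ·)) (by simp +contextual) (by simp +contextual) hG
    (fun b hb => by simp [Nat.mod_eq_zero_of_dvd (hb.trans hd)]) h

/-- insertion -/
noncomputable def ins (a : ℕ) (l : List ℕ) : List ℕ :=
  List.rec [a] (fun b l' ih => bif Nat.ble b a then a :: b :: l' else b :: ih) l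

theorem ins_eq (a : ℕ) (l : List ℕ) : ins a l = l.orderedInsert (· ≥ ·) a := by
  induction l with
  | nil => rfl
  | cons b l ih =>
    rw [List.orderedInsert_cons, ← ih]
    show (bif Nat.ble b a then a :: b :: l else b :: ins a l) = _
    by_cases h : b ≤ a
    · rw [Nat.ble_eq_true_of_le h, if_pos h, cond_true]
    · rw [Bool.eq_false_iff.2 (mt Nat.le_of_ble_eq_true h), if_neg h, cond_false]

/-- sorting, largest first -/
noncomputable def srt (l : List ℕ) : List ℕ := List.rec [] (fun a _ ih => ins a ih) l

theorem srt_eq (l : List ℕ) : srt l = l.insertionSort (· ≥ ·) := by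
  induction l with
  | nil => rfl
  | cons a l ih => rw [List.insertionSort_cons, ← ih, ← ins_eq]; rfl

/-- the candidates for degrees -/
noncomputable def degs (m : ℕ) (f : ℕ → Bool) : List ℕ :=
  srt (tr [] app (fun b => Nat.beq (m % b) 0 && Nat.ble (b * b) m) (fun d => ite1 (f d) d) PR 1)

theorem degs_sorted (m : ℕ) (f : ℕ → Bool) : (degs m f).Pairwise (· ≥ ·) := by
  rw [degs, srt_eq]
  exact List.pairwise_insertionSort _ _

theorem mem_degs {m d : ℕ} {f : ℕ → Bool} (hG : m ∣ oG) (hd : d ∣ m) (h2 : d * d ≤ m)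
    (h : f d = true) : d ∈ degs m f := by
  rw [degs, srt_eq, List.mem_insertionSort]
  have h0 : 0 < d := Nat.pos_of_dvd_of_pos (hd.trans hG) (by decide)
  refine tr_PR (P := (d ∈ ·)) (by simp +contextual) (by simp +contextual) (hd.trans hG)
    (fun b hb => ?_) (by simp [h])
  have := Nat.le_of_dvd h0 hb
  simp [Nat.mod_eq_zero_of_dvd (hb.trans hd), (Nat.mul_le_mul this this).trans h2]

/-- absolute value -/
def nab (x : ℤ) : ℕ := Int.casesOn x (fun n => n) fun n => Nat.succ n

@[simp] theorem nab_eq (x : ℤ) : nab x = x.natAbs := by cases x <;> rfl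

/-- subtraction -/
def isub (a b : ℤ) : ℤ :=
  Int.casesOn a (fun m => Int.casesOn b (fun n => bif Nat.ble n m then .ofNat (Nat.sub m n)
    else .negSucc (Nat.sub n (Nat.succ m))) fun n => .ofNat (Nat.add m (Nat.succ n)))
    fun m => Int.casesOn b (fun n => .negSucc (Nat.add m n)) fun n =>
      bif Nat.ble m n then .ofNat (Nat.sub n m) else .negSucc (Nat.sub m (Nat.succ n))

@[simp] theorem isub_eq (a b : ℤ) : isub a b = a - b := by
  cases a <;> cases b <;> simp only [isub, Bool.cond_eq_ite, Nat.ble_eq, Int.ofNat_eq_natCast,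
    Int.negSucc_eq, Nat.sub_eq, Nat.add_eq, Nat.succ_eq_add_one] <;> (try split_ifs) <;> omega

/-- runs through a list while `k` members can reach `t` -/
noncomputable def loop {α : Type} (k t : ℕ) (f : ℕ → ℤ → List ℤ → List α) (l : List ℤ) :
    List α :=
  List.rec [] (fun c tl ih => fN (nab c) fun a =>
    bif Nat.ble t (Nat.mul k a) then app (f a c (c :: tl)) ih else []) l

theorem loop_cons {α : Type} (k t : ℕ) (f : ℕ → ℤ → List ℤ → List α) (c : ℤ) (l : List ℤ) :
    loop k t f (c :: l) = bif Nat.ble t (Nat.mul k (nab c)) then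
      app (f (nab c) c (c :: l)) (loop k t f l) else [] :=
  fN_eq (nab c) fun a => bif Nat.ble t (Nat.mul k a) then app (f a c (c :: l)) (loop k t f l) else []

/-- multisets of `k` members of `cs` with sum `T` and sum of squares at most `b` -/
noncomputable def gl (leaf : List ℤ → Bool) (M k : ℕ) :
    List ℤ → ℤ → ℕ → List ℤ → List (List ℤ) :=
  Nat.rec (fun _ _ _ acc => ite1 (leaf acc) acc)
    (fun k ih cs T b acc => fN (nab T) fun t => bif Nat.beq k 0 then
      ite1 (Nat.beq (Nat.mod M t) 0 && Nat.ble (Nat.mul t t) b && an (fun c => decide (c = T)) cs &&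
        leaf (T :: acc)) (T :: acc) else loop (Nat.succ k) t
      (fun a c l => fN (Nat.mul a a) fun s => bif Nat.ble s b then
        fI (isub T c) fun T' => fN (Nat.sub b s) fun b' => ih l T' b' (c :: acc) else []) cs) k

theorem natAbs_sum_le {s : Multiset ℤ} {n : ℕ} (h : ∀ x ∈ s, x.natAbs ≤ n) :
    s.sum.natAbs ≤ s.card * n := by
  induction s using Multiset.induction_on with
  | empty => simp
  | cons a s ih =>
    rw [Multiset.sum_cons, Multiset.card_cons, add_mul, one_mul, add_comm (_ * _)]
    exact (Int.natAbs_add_le _ _).trans (add_le_add (h a (by simp)) (ih fun x hx => h x (by simp [hx])))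

theorem gl_of {leaf : List ℤ → Bool} {M k : ℕ} {cs acc : List ℤ} {T : ℤ} {b : ℕ} {s : Multiset ℤ}
    (hk : s.card = k) (hs : ∀ x ∈ s, x ∈ cs) (hM : ∀ x ∈ s, x.natAbs ∣ M)
    (hc : cs.Pairwise fun x y => y.natAbs ≤ x.natAbs)
    (hT : s.sum = T) (hb : (s.map fun x => x.natAbs * x.natAbs).sum ≤ b)
    (h : ∀ l : List ℤ, (l : Multiset ℤ) = acc + s → leaf l = true) :
    ∃ l ∈ gl leaf M k cs T b acc, (l : Multiset ℤ) = acc + s := by
  induction k generalizing cs acc T b s with
  | zero =>
    rw [Multiset.card_eq_zero] at hk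
    subst hk
    exact ⟨acc, mem_ite1.2 ⟨by simp [h acc], rfl⟩, by simp⟩
  | succ k ih =>
    show ∃ l ∈ fN (nab T) fun t => bif Nat.beq k 0 then
      ite1 (Nat.beq (Nat.mod M t) 0 && Nat.ble (Nat.mul t t) b && an (fun c => decide (c = T)) cs &&
        leaf (T :: acc)) (T :: acc) else loop (Nat.succ k) t
      (fun a c l => fN (Nat.mul a a) fun s => bif Nat.ble s b then
        fI (isub T c) fun T' => fN (Nat.sub b s) fun b' => gl leaf M k l T' b' (c :: acc)
          else []) cs, _
    rw [fN_eq]
    rcases k with _ | k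
    · obtain ⟨x, rfl⟩ := Multiset.card_eq_one.1 hk
      obtain rfl : x = T := by simpa using hT
      have e : ((x :: acc : List ℤ) : Multiset ℤ) = acc + {x} := by
        rw [add_comm, Multiset.singleton_add, Multiset.cons_coe]
      refine ⟨x :: acc, mem_ite1.2 ⟨?_, rfl⟩, e⟩
      have h0 : Nat.mod M x.natAbs = 0 := Nat.mod_eq_zero_of_dvd (hM x (by simp))
      simpa [h _ e, hs x (by simp), h0] using hb
    rw [show Nat.beq (k + 1) 0 = false from rfl, cond_false]
    induction cs with
    | nil =>
      obtain ⟨x, hx⟩ := Multiset.card_pos_iff_exists_mem.1 (show 0 < s.card by omega)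
      simpa using hs x hx
    | cons c tl ih' =>
      have h1 : Nat.ble (nab T) (Nat.mul (k + 1).succ (nab c)) = true := by
        rw [Nat.ble_eq, nab_eq, nab_eq, Nat.succ_eq_add_one, ← hT, ← hk]
        exact natAbs_sum_le fun x hx => (List.mem_cons.1 (hs x hx)).elim (fun e => e ▸ le_rfl)
          (List.rel_of_pairwise_cons hc)
      rw [loop_cons, h1, cond_true, app_eq]
      by_cases hc' : c ∈ s
      · obtain ⟨s, rfl⟩ := Multiset.exists_cons_of_mem hc'
        simp only [Multiset.map_cons, Multiset.sum_cons, Multiset.card_cons] at hb hk hT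
        have e : ((c :: acc : List ℤ) : Multiset ℤ) + s = acc + c ::ₘ s := by
          rw [← Multiset.cons_coe, Multiset.cons_add, Multiset.add_cons]
        obtain ⟨l, hl, hl'⟩ := ih (cs := c :: tl) (acc := c :: acc) (T := T - c)
          (b := b - c.natAbs * c.natAbs) (s := s) (by omega)
          (fun x hx => hs x (Multiset.mem_cons_of_mem hx))
          (fun x hx => hM x (Multiset.mem_cons_of_mem hx)) hc (by omega) (by omega)
          fun l hl => h l (hl.trans e)
        refine ⟨l, List.mem_append_left _ ?_, hl'.trans e⟩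
        rwa [fN_eq, nab_eq, Nat.mul_eq, Nat.ble_eq_true_of_le (by omega), cond_true, fI_eq, fN_eq,
          isub_eq]
      · obtain ⟨l, hl, hl'⟩ := ih' (fun x hx => (List.mem_cons.1 (hs x hx)).resolve_left
          (by rintro rfl; exact hc' hx)) hc.of_cons
        exact ⟨l, List.mem_append_right _ hl, hl'⟩

/-- takes a member out of a list -/
noncomputable def pick (f : ℕ × ℤ → WL → Bool) (post : WL) : WL → Bool :=
  List.rec (fun _ => false) (fun b tl ih pre => f b (app pre tl) || ih (b :: pre)) post

theorem pick_of {f : ℕ × ℤ → WL → Bool} {post pre : WL} {x : ℕ × ℤ} (hx : x ∈ post)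
    (h : ∀ l : WL, x ::ₘ (l : Multiset (ℕ × ℤ)) = pre + post → f x l = true) :
    pick f post pre = true := by
  induction post generalizing pre with
  | nil => simp at hx
  | cons b tl ih =>
    show (f b (app pre tl) || pick f tl (b :: pre)) = true
    rw [Bool.or_eq_true]
    by_cases e : x = b
    · subst e
      exact Or.inl (h _ (by rw [app_eq, ← Multiset.cons_coe, Multiset.add_cons, Multiset.coe_add]))
    · refine Or.inr (ih ((List.mem_cons.1 hx).resolve_left e) fun l hl => h l ?_)
      rw [hl, ← Multiset.cons_coe, ← Multiset.cons_coe, Multiset.add_cons, Multiset.cons_add]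

/-- a partial matching of equal degrees whose products of weights cancel `s` -/
noncomputable def mtch (fa fb : ℕ → Bool) (A : WL) : WL → ℤ → Bool :=
  List.rec (fun B s => Nat.beq s.natAbs 0 && al (fun b => fb b.1) B)
    (fun a _ ih B s => (fa a.1 && ih B s) ||
      pick (fun b B' => Nat.beq b.1 a.1 && ih B' (s + a.2 * b.2)) B []) A

theorem mtch_of {ι : Type*} [DecidableEq ι] {fa fb : ℕ → Bool} {d : ι → ℕ} {u w : ι → ℤ}
    {A B : Finset ι} {a b : WL} {s : ℤ} (ha : (a : Multiset (ℕ × ℤ)) = A.val.map fun i => (d i, u i))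
    (hb : (b : Multiset (ℕ × ℤ)) = B.val.map fun i => (d i, w i))
    (h1 : ∀ i ∈ A, i ∉ B → fa (d i) = true) (h2 : ∀ i ∈ B, i ∉ A → fb (d i) = true)
    (h : s + ∑ i ∈ A ∩ B, u i * w i = 0) : mtch fa fb a b s = true := by
  induction a generalizing A B b s with
  | nil =>
    obtain rfl : A = ∅ := by simpa using ha.symm
    show (Nat.beq s.natAbs 0 && al (fun b => fb b.1) b) = true
    simp only [al_eq, Bool.and_eq_true, Nat.beq_eq, Int.natAbs_eq_zero, List.all_eq_true]
    refine ⟨by simpa using h, fun x hx => ?_⟩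
    obtain ⟨i, hi, rfl⟩ := Multiset.mem_map.1 (hb ▸ Multiset.mem_coe.2 hx)
    exact h2 i hi (by simp)
  | cons x a ih =>
    obtain ⟨i, hi, rfl⟩ := Multiset.mem_map.1 (ha ▸ Multiset.mem_coe.2 List.mem_cons_self)
    have e1 : (a : Multiset (ℕ × ℤ)) = (A.erase i).val.map fun i => (d i, u i) := by
      rw [← Multiset.cons_inj_right (d i, u i), Multiset.cons_coe, ha, Finset.erase_val,
        ← Multiset.map_cons (fun i => (d i, u i)), Multiset.cons_erase hi]
    show ((fa (d i) && mtch fa fb a b s) ||
      pick (fun b B' => Nat.beq b.1 (d i) && mtch fa fb a B' (s + u i * b.2)) b []) = true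
    rw [Bool.or_eq_true]
    by_cases hB : i ∈ B
    · refine Or.inr (pick_of (x := (d i, w i)) (Multiset.mem_coe.1 (hb ▸ Multiset.mem_map_of_mem _ hB))
        fun l hl => ?_)
      rw [Bool.and_eq_true]
      refine ⟨by simp, ih (B := B.erase i) e1 ?_ (fun j hj hj' => ?_) (fun j hj hj' => ?_) ?_⟩
      · rw [← Multiset.cons_inj_right (d i, w i), hl, Finset.erase_val,
          ← Multiset.map_cons (fun i => (d i, w i)), Multiset.cons_erase hB, ← hb]
        simp
      · rw [Finset.mem_erase] at hj hj'
        exact h1 j hj.2 fun h => hj' ⟨hj.1, h⟩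
      · rw [Finset.mem_erase] at hj hj'
        exact h2 j hj.2 fun h => hj' ⟨hj.1, h⟩
      · rw [← h, ← Finset.add_sum_erase _ _ (Finset.mem_inter.2 ⟨hi, hB⟩), add_assoc,
          Finset.erase_inter, Finset.inter_erase, Finset.erase_idem]
    · refine Or.inl ?_
      rw [Bool.and_eq_true]
      refine ⟨h1 i hi hB, ih e1 hb (fun j hj => h1 j (Finset.mem_of_mem_erase hj))
        (fun j hj hj' => h2 j hj fun h => hj' (Finset.mem_erase.2 ⟨?_, h⟩)) ?_⟩
      · rintro rfl
        exact hB hj
      · rw [← h, Finset.erase_inter, Finset.erase_eq_of_notMem (by simp [hB])]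

end CL.J4.Mx
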