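import Cfsg.Agent.SPOR.J4.MxChk

/-!
Runs of the checker.
-/

namespace CL.J4.Mx

theorem cover37 : cover 37 12 (C37a ++ (C37b ++ C37c)) = true := by decide +kernel

theorem dead37a : dead 37 C37a = true := by decide +kernel

theorem dead37b : dead 37 C37b = true := by decide +kernel

end CL.J4.Mx
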